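import Cfsg.Agent.Lib.Helper11.Tv.Mat

set_option autoImplicit false

namespace Cfsg.Agent.Lib.Helper11.Tv

open Matrix

def f : Fin 3 → Fin 5 := ![2, 3, 4]

theorem f_ne0 : ∀ a, f a ≠ 0 := by decide
theorem f_ne1 : ∀ a, f a ≠ 1 := by decide

theorem eq_P (x : M5) (h00 : x 0 0 = 1) (h11 : x 1 1 = 1) (hc0 : ∀ a, a ≠ 0 → x a 0 = 0)
    (hr1 : ∀ b, b ≠ 1 → x 1 b = 0)
    (hmid : ∀ a b : Fin 3, x (f a) (f b) = (1 : Matrix (Fin 3) (Fin 3) (ZMod 2)) a b) :
    x = P (x 0 1) (x 0 2) (x 0 3) (x 0 4) (x 2 1) (x 3 1) (x 4 1) := by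
  have e10 := hc0 1 (by decide)
  have e20 := hc0 2 (by decide)
  have e30 := hc0 3 (by decide)
  have e40 := hc0 4 (by decide)
  have e12 := hr1 2 (by decide)
  have e13 := hr1 3 (by decide)
  have e14 := hr1 4 (by decide)
  have m22 : x 2 2 = 1 := hmid 0 0
  have m23 : x 2 3 = 0 := hmid 0 1
  have m24 : x 2 4 = 0 := hmid 0 2
  have m32 : x 3 2 = 0 := hmid 1 0
  have m33 : x 3 3 = 1 := hmid 1 1
  have m34 : x 3 4 = 0 := hmid 1 2
  have m42 : x 4 2 = 0 := hmid 2 0
  have m43 : x 4 3 = 0 := hmid 2 1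
  have m44 : x 4 4 = 1 := hmid 2 2
  ext a b
  fin_cases a <;> fin_cases b <;>
    simp [P, h00, h11, e10, e20, e30, e40, e12, e13, e14, m22, m23, m24, m32, m33, m34, m42, m43, m44]

/-- the standard transvection -/
def s0 : S5 := tv 0 1 (by decide)

abbrev Cs : Subgroup S5 := Subgroup.centralizer ({s0} : Set S5)

theorem comm_mat {x y : S5} (h : x * y = y * x) : x.1 * y.1 = y.1 * x.1 :=
  congrArg Subtype.val h

theorem shape (g : S5) (hg : g ∈ Cs) :
    (∀ b, b ≠ 1 → g.1 1 b = 0) ∧ (∀ a, a ≠ 0 → g.1 a 0 = 0) ∧ g.1 0 0 = g.1 1 1 := by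
  have h : g * s0 = s0 * g := Subgroup.mem_centralizer_singleton_iff.1 hg
  exact comm_tv g.1 0 1 (by decide) (comm_mat h)

/-- the middle block -/
def pi : Cs →* Matrix (Fin 3) (Fin 3) (ZMod 2) where
  toFun g := (g.1.1).submatrix f f
  map_one' := Matrix.submatrix_one f (by decide)
  map_mul' g h := by
    ext a b
    show (g.1.1 * h.1.1) (f a) (f b) = _
    rw [Matrix.mul_apply, Matrix.mul_apply, Fin.sum_univ_five, Fin.sum_univ_three,
      (shape g.1 g.2).2.1 (f a) (f_ne0 a), (shape h.1 h.2).1 (f b) (f_ne1 b)]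
    simp [f]

theorem ker_pow (q : Cs) (hq : q ∈ pi.ker) : q ^ 4 = 1 := by
  have hsh := shape q.1 q.2
  have h00 := diag_one q.1 hsh.2.1
  have h11 : q.1.1 1 1 = 1 := by rw [← hsh.2.2]; exact h00
  have hk : (q.1.1).submatrix f f = 1 := hq
  have hmid : ∀ a b : Fin 3, q.1.1 (f a) (f b) = (1 : Matrix (Fin 3) (Fin 3) (ZMod 2)) a b :=
    fun a b => by rw [← hk]; rfl
  have hP := eq_P q.1.1 h00 h11 hsh.2.1 hsh.1 hmid
  apply Subtype.ext
  apply Subtype.ext
  have h4 : ((q ^ 4 : Cs) : S5).1 = q.1.1 ^ 4 := by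
    rw [Subgroup.coe_pow]
    exact Matrix.SpecialLinearGroup.coe_pow q.1 4
  rw [h4, hP]
  exact P_pow _ _ _ _ _ _ _

theorem tv_mem (i j : Fin 5) (hij : i ≠ j)
    (h : transvection i j (1 : ZMod 2) * transvection 0 1 1 = transvection 0 1 1 * transvection i j 1) :
    tv i j hij ∈ Cs :=
  Subgroup.mem_centralizer_singleton_iff.2 (Subtype.ext h)

def u2 : Cs := ⟨tv 0 2 (by decide), tv_mem _ _ _ (by decide +kernel)⟩
def u3 : Cs := ⟨tv 0 3 (by decide), tv_mem _ _ _ (by decide +kernel)⟩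
def u4 : Cs := ⟨tv 0 4 (by decide), tv_mem _ _ _ (by decide +kernel)⟩
def v2 : Cs := ⟨tv 2 1 (by decide), tv_mem _ _ _ (by decide +kernel)⟩
def v3 : Cs := ⟨tv 3 1 (by decide), tv_mem _ _ _ (by decide +kernel)⟩
def v4 : Cs := ⟨tv 4 1 (by decide), tv_mem _ _ _ (by decide +kernel)⟩
def sc : Cs := ⟨s0, tv_mem _ _ _ rfl⟩

theorem u2_ker : u2 ∈ pi.ker := by
  show (transvection 0 2 (1 : ZMod 2)).submatrix f f = 1
  decide +kernel
theorem u3_ker : u3 ∈ pi.ker := by
  show (transvection 0 3 (1 : ZMod 2)).submatrix f f = 1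
  decide +kernel
theorem u4_ker : u4 ∈ pi.ker := by
  show (transvection 0 4 (1 : ZMod 2)).submatrix f f = 1
  decide +kernel
theorem v2_ker : v2 ∈ pi.ker := by
  show (transvection 2 1 (1 : ZMod 2)).submatrix f f = 1
  decide +kernel
theorem v3_ker : v3 ∈ pi.ker := by
  show (transvection 3 1 (1 : ZMod 2)).submatrix f f = 1
  decide +kernel
theorem v4_ker : v4 ∈ pi.ker := by
  show (transvection 4 1 (1 : ZMod 2)).submatrix f f = 1
  decide +kernel
theorem sc_ker : sc ∈ pi.ker := by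
  show (transvection 0 1 (1 : ZMod 2)).submatrix f f = 1
  decide +kernel

theorem P_zero : P 0 0 0 0 0 0 0 = 1 := by decide +kernel
theorem P_one : P 1 0 0 0 0 0 0 = transvection 0 1 1 := by decide +kernel

/-- An element of `Cs` commuting with the six generators is `1` or the transvection. -/
theorem cent_Q (x : Cs) (h2 : x * u2 = u2 * x) (h3 : x * u3 = u3 * x) (h4 : x * u4 = u4 * x)
    (k2 : x * v2 = v2 * x) (k3 : x * v3 = v3 * x) (k4 : x * v4 = v4 * x) : x = 1 ∨ x = sc := by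
  have hsh := shape x.1 x.2
  have h00 := diag_one x.1 hsh.2.1
  have h11 : x.1.1 1 1 = 1 := by rw [← hsh.2.2]; exact h00
  have c2 := comm_tv x.1.1 0 2 (by decide) (comm_mat (congrArg Subtype.val h2))
  have c3 := comm_tv x.1.1 0 3 (by decide) (comm_mat (congrArg Subtype.val h3))
  have c4 := comm_tv x.1.1 0 4 (by decide) (comm_mat (congrArg Subtype.val h4))
  have d2 := comm_tv x.1.1 2 1 (by decide) (comm_mat (congrArg Subtype.val k2))
  have d3 := comm_tv x.1.1 3 1 (by decide) (comm_mat (congrArg Subtype.val k3))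
  have d4 := comm_tv x.1.1 4 1 (by decide) (comm_mat (congrArg Subtype.val k4))
  have m22 : x.1.1 2 2 = 1 := by rw [← c2.2.2]; exact h00
  have m33 : x.1.1 3 3 = 1 := by rw [← c3.2.2]; exact h00
  have m44 : x.1.1 4 4 = 1 := by rw [← c4.2.2]; exact h00
  have hmid : ∀ a b : Fin 3, x.1.1 (f a) (f b) = (1 : Matrix (Fin 3) (Fin 3) (ZMod 2)) a b := by
    intro a b
    fin_cases a <;> fin_cases b
    · exact m22
    · exact c2.1 3 (by decide)
    · exact c2.1 4 (by decide)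
    · exact c3.1 2 (by decide)
    · exact m33
    · exact c3.1 4 (by decide)
    · exact c4.1 2 (by decide)
    · exact c4.1 3 (by decide)
    · exact m44
  have hP := eq_P x.1.1 h00 h11 hsh.2.1 hsh.1 hmid
  rw [d2.2.1 0 (by decide), d3.2.1 0 (by decide), d4.2.1 0 (by decide),
    c2.1 1 (by decide), c3.1 1 (by decide), c4.1 1 (by decide)] at hP
  rcases zmod2_cases (x.1.1 0 1) with h | h
  · left
    rw [h, P_zero] at hP
    exact Subtype.ext (Subtype.ext hP)
  · right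
    rw [h, P_one] at hP
    exact Subtype.ext (Subtype.ext hP)

end Cfsg.Agent.Lib.Helper11.Tv
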