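import Mathlib

set_option autoImplicit false

namespace Cfsg.Agent.Lib.Helper11.Tv

open Matrix

abbrev M5 := Matrix (Fin 5) (Fin 5) (ZMod 2)
abbrev S5 := Matrix.SpecialLinearGroup (Fin 5) (ZMod 2)

/-- Entries of a matrix commuting with an elementary transvection. -/
theorem comm_tv (x : M5) (i j : Fin 5) (hij : i ≠ j)
    (h : x * transvection i j 1 = transvection i j 1 * x) :
    (∀ b, b ≠ j → x j b = 0) ∧ (∀ a, a ≠ i → x a i = 0) ∧ x i i = x j j := by
  refine ⟨fun b hb => ?_, fun a ha => ?_, ?_⟩
  · have := congrFun (congrFun h i) b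
    rw [mul_transvection_apply_of_ne _ _ _ _ hb, transvection_mul_apply_same] at this
    simpa using this
  · have := congrFun (congrFun h a) j
    rw [mul_transvection_apply_same, transvection_mul_apply_of_ne _ _ _ _ ha] at this
    simpa using this
  · have := congrFun (congrFun h i) j
    rw [mul_transvection_apply_same, transvection_mul_apply_same] at this
    simpa using this

/-- elementary transvections as elements of `SL₅(2)` -/
def tv (i j : Fin 5) (hij : i ≠ j) : S5 := ⟨transvection i j 1, det_transvection_of_ne _ _ hij 1⟩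

theorem zmod2_cases (a : ZMod 2) : a = 0 ∨ a = 1 := by
  revert a; decide

theorem diag_one (x : S5) (h : ∀ a, a ≠ 0 → x.1 a 0 = 0) : x.1 0 0 = 1 := by
  rcases zmod2_cases (x.1 0 0) with h0 | h0
  · exfalso
    have hdet := x.2
    rw [Matrix.det_eq_zero_of_column_eq_zero 0 (fun a => by
      by_cases ha : a = 0
      · rw [ha]; exact h0
      · exact h a ha)] at hdet
    exact zero_ne_one hdet
  · exact h0

/-- the explicit shape of the elements of the extraspecial group -/
def P (c a2 a3 a4 b2 b3 b4 : ZMod 2) : M5 :=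
  !![1, c, a2, a3, a4; 0, 1, 0, 0, 0; 0, b2, 1, 0, 0; 0, b3, 0, 1, 0; 0, b4, 0, 0, 1]

theorem P_pow : ∀ c a2 a3 a4 b2 b3 b4 : ZMod 2, P c a2 a3 a4 b2 b3 b4 ^ 4 = 1 := by
  decide +kernel

end Cfsg.Agent.Lib.Helper11.Tv
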