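import Mathlib

set_option autoImplicit false

namespace Cfsg.Agent.Lib.Helper11.Tv

/-- If the centre of a Sylow 2-subgroup `T` of `C_G(z)` is `{1, z}` then `T` is a Sylow 2-subgroup of `G`. -/
theorem sylow_of_center {G : Type*} [Group G] [Finite G] (z : G) (C : Subgroup G)
    (hC : C = Subgroup.centralizer ({z} : Set G)) (T : Sylow 2 C)
    (hzT : z ∈ (T : Subgroup C).map C.subtype)
    (hz1 : z ≠ 1)
    (hZ : ∀ x ∈ (T : Subgroup C), (∀ y ∈ (T : Subgroup C), x * y = y * x) → x = 1 ∨ (x : G) = z) :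
    ¬ 2 ∣ ((T : Subgroup C).map C.subtype).index := by
  classical
  intro hdvd
  haveI : Fact (Nat.Prime 2) := ⟨Nat.prime_two⟩
  set T' : Subgroup G := (T : Subgroup C).map C.subtype with hT'
  have hT'p : IsPGroup 2 T' := T.2.map _
  obtain ⟨n, hn⟩ := IsPGroup.iff_card.1 hT'p
  have hdiv : 2 ^ (n + 1) ∣ Nat.card G := by
    rw [← T'.card_mul_index, hn, pow_succ]
    exact Nat.mul_dvd_mul_left _ hdvd
  obtain ⟨K, hKc, hTK⟩ := Sylow.exists_subgroup_card_pow_succ hdiv hn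
  have hidx : (T'.subgroupOf K).index = 2 := by
    have h1 := (T'.subgroupOf K).card_mul_index
    have h2 : Nat.card (T'.subgroupOf K) = 2 ^ n := by
      rw [← hn]
      exact Nat.card_congr (Subgroup.subgroupOfEquivOfLe hTK).toEquiv
    rw [h2, hKc, pow_succ] at h1
    exact Nat.eq_of_mul_eq_mul_left (by positivity) h1
  have hnorm : (T'.subgroupOf K).Normal := Subgroup.normal_of_index_eq_two hidx
  have hconj : ∀ g ∈ K, ∀ y ∈ T', g * y * g⁻¹ ∈ T' := by
    intro g hg y hy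
    have := hnorm.conj_mem ⟨y, hTK hy⟩ (Subgroup.mem_subgroupOf.2 hy) ⟨g, hg⟩
    exact Subgroup.mem_subgroupOf.1 this
  have hmemT' : ∀ y : G, y ∈ T' → ∃ h : y ∈ C, (⟨y, h⟩ : C) ∈ (T : Subgroup C) := by
    intro y hy
    obtain ⟨w, hw, rfl⟩ := Subgroup.mem_map.1 hy
    exact ⟨w.2, hw⟩
  have hKC : K ≤ C := by
    intro g hg
    have h1 : g * z * g⁻¹ ∈ T' := hconj g hg z hzT
    obtain ⟨hc, hcT⟩ := hmemT' _ h1
    have h2 := hZ ⟨g * z * g⁻¹, hc⟩ hcT (by
      intro y hy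
      have hyT' : (y : G) ∈ T' := Subgroup.mem_map_of_mem _ hy
      have hy' : g⁻¹ * (y : G) * g⁻¹⁻¹ ∈ T' := hconj g⁻¹ (inv_mem hg) y hyT'
      obtain ⟨hyC, -⟩ := hmemT' _ hy'
      have hcomm : (g⁻¹ * (y : G) * g⁻¹⁻¹) * z = z * (g⁻¹ * (y : G) * g⁻¹⁻¹) :=
        Subgroup.mem_centralizer_singleton_iff.1 (hC ▸ hyC)
      apply Subtype.ext
      show g * z * g⁻¹ * (y : G) = (y : G) * (g * z * g⁻¹)
      have e1 : (y : G) = g * (g⁻¹ * (y : G) * g⁻¹⁻¹) * g⁻¹ := by group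
      generalize g⁻¹ * (y : G) * g⁻¹⁻¹ = w at e1 hcomm
      rw [e1]
      calc g * z * g⁻¹ * (g * w * g⁻¹) = g * (z * w) * g⁻¹ := by group
        _ = g * (w * z) * g⁻¹ := by rw [hcomm]
        _ = g * w * g⁻¹ * (g * z * g⁻¹) := by group)
    rcases h2 with h2 | h2
    · exfalso
      apply hz1
      have h3 : g * z * g⁻¹ = 1 := congrArg Subtype.val h2
      have h4 : z = g⁻¹ * (g * z * g⁻¹) * g := by group
      rw [h4, h3]
      group
    · have h3 : g * z * g⁻¹ = z := h2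
      rw [hC, Subgroup.mem_centralizer_singleton_iff]
      calc g * z = g * z * g⁻¹ * g := by group
        _ = z * g := by rw [h3]
  have hKp : IsPGroup 2 K := IsPGroup.of_card hKc
  have hK'p : IsPGroup 2 (K.subgroupOf C) := hKp.comap_subtype
  have hle : (T : Subgroup C) ≤ K.subgroupOf C := fun y hy =>
    Subgroup.mem_subgroupOf.2 (hTK (Subgroup.mem_map_of_mem _ hy))
  have heq := T.is_maximal' hK'p hle
  have c1 : Nat.card (K.subgroupOf C) = 2 ^ (n + 1) := by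
    rw [← hKc]
    exact Nat.card_congr (Subgroup.subgroupOfEquivOfLe hKC).toEquiv
  have c2 : Nat.card (T : Subgroup C) = 2 ^ n := by
    rw [← hn]
    exact Nat.card_congr
      (Subgroup.equivMapOfInjective (T : Subgroup C) C.subtype C.subtype_injective).toEquiv
  rw [heq, c2] at c1
  have := Nat.pow_lt_pow_right (by norm_num : 1 < 2) (Nat.lt_succ_self n)
  omega

end Cfsg.Agent.Lib.Helper11.Tv
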